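import Mathlib
import Cfsg.Agent.Lib.Helper81.CS3.NGDefs

/-!
# CS3 (S4284), part NG, package [I]: `m` prime and all non-central `m`-elements of type (i)
is impossible.
-/

set_option autoImplicit false

namespace Cfsg.Agent.Lib.Helper49.CS3

open Cfsg.Agent.Lib.Helper81.CS3
open scoped Pointwise

universe u

variable {G : Type u} [Group G]

theorem idx_eq_one_iff' (x : G) : idx x = 1 ↔ x ∈ Subgroup.center G := by
  unfold idx
  rw [Subgroup.index_eq_one, Subgroup.centralizer_eq_top_iff_subset, Set.singleton_subset_iff]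
  rfl

theorem idx_conj' (k x : G) : idx (k * x * k⁻¹) = idx x := by
  unfold idx
  have h : Subgroup.centralizer ({k * x * k⁻¹} : Set G)
      = (Subgroup.centralizer ({x} : Set G)).map ((MulAut.conj k : G ≃* G) : G →* G) := by
    ext y
    simp only [Subgroup.mem_centralizer_singleton_iff, Subgroup.mem_map, MonoidHom.coe_coe,
      MulAut.conj_apply]
    constructor
    · intro hy
      refine ⟨k⁻¹ * y * k, ?_, by group⟩
      calc k⁻¹ * y * k * x = k⁻¹ * (y * (k * x * k⁻¹)) * k := by group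
        _ = k⁻¹ * ((k * x * k⁻¹) * y) * k := by rw [hy]
        _ = x * (k⁻¹ * y * k) := by group
    · rintro ⟨g, hg, rfl⟩
      calc k * g * k⁻¹ * (k * x * k⁻¹) = k * (g * x) * k⁻¹ := by group
        _ = k * (x * g) * k⁻¹ := by rw [hg]
        _ = k * x * k⁻¹ * (k * g * k⁻¹) := by group
  rw [h]
  exact Subgroup.index_map_equiv _ (MulAut.conj k)

theorem commute_conj' (c : G) {a b : G} (h : Commute a b) :
    Commute (c * a * c⁻¹) (c * b * c⁻¹) := by
  show c * a * c⁻¹ * (c * b * c⁻¹) = c * b * c⁻¹ * (c * a * c⁻¹)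
  calc c * a * c⁻¹ * (c * b * c⁻¹) = c * (a * b) * c⁻¹ := by group
    _ = c * (b * a) * c⁻¹ := by rw [h.eq]
    _ = c * b * c⁻¹ * (c * a * c⁻¹) := by group

/-- coprime trick -/
theorem coprime_trick' {x σ z : G} {r s k a : ℕ} (hz : z ∈ Subgroup.center G)
    (h : σ * x * σ⁻¹ = x * z) (hx : orderOf x = r ^ k) (hσ : orderOf σ = s ^ a)
    (hrs : Nat.Coprime r s) : z = 1 := by
  have hzc : ∀ y : G, Commute y z := fun y => Subgroup.mem_center_iff.mp hz y
  have h1 : ∀ i : ℕ, σ ^ i * x * (σ ^ i)⁻¹ = x * z ^ i := by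
    intro i
    induction i with
    | zero => simp
    | succ i ih =>
      calc σ ^ (i + 1) * x * (σ ^ (i + 1))⁻¹ = σ * (σ ^ i * x * (σ ^ i)⁻¹) * σ⁻¹ := by
            rw [pow_succ']; group
        _ = σ * (x * z ^ i) * σ⁻¹ := by rw [ih]
        _ = (σ * x * σ⁻¹) * (σ * z ^ i * σ⁻¹) := by group
        _ = x * z * z ^ i := by
            rw [h]
            congr 1
            rw [((hzc σ).pow_right i).eq]; group
        _ = x * z ^ (i + 1) := by rw [pow_succ', mul_assoc]
  have hz1 : z ^ (s ^ a) = 1 := by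
    have hσ1 : σ ^ (s ^ a) = 1 := by rw [← hσ]; exact pow_orderOf_eq_one σ
    have := h1 (s ^ a)
    rw [hσ1] at this
    simpa using this
  have hz2 : z ^ (r ^ k) = 1 := by
    have e1 : (σ * x * σ⁻¹) ^ (r ^ k) = 1 := by
      rw [conj_pow, ← hx, pow_orderOf_eq_one]; group
    rw [h, (hzc x).mul_pow, ← hx, pow_orderOf_eq_one, one_mul, hx] at e1
    exact e1
  have hd1 : orderOf z ∣ s ^ a := orderOf_dvd_of_pow_eq_one hz1
  have hd2 : orderOf z ∣ r ^ k := orderOf_dvd_of_pow_eq_one hz2
  have hco : Nat.Coprime (r ^ k) (s ^ a) := Nat.Coprime.pow k a hrs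
  have : orderOf z = 1 := Nat.eq_one_of_dvd_coprimes hco hd2 hd1
  exact orderOf_eq_one_iff.mp this

variable [Finite G]

/-- if `C(v)` is abelian, `w ∈ C(v)` and the class sizes agree, then `C(w) = C(v)` -/
theorem cent_eq_of_abC' {v w : G} (hab : AbC v) (hw : Commute w v) (hidx : idx v = idx w) :
    ∀ g : G, Commute g w ↔ Commute g v := by
  have hle : Subgroup.centralizer ({v} : Set G) ≤ Subgroup.centralizer ({w} : Set G) := by
    intro g hg
    rw [Subgroup.mem_centralizer_singleton_iff] at hg ⊢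
    exact hab g w hg hw
  have hcard : Nat.card (Subgroup.centralizer ({w} : Set G)) ≤
      Nat.card (Subgroup.centralizer ({v} : Set G)) := by
    have h1 := Subgroup.card_mul_index (Subgroup.centralizer ({v} : Set G))
    have h2 := Subgroup.card_mul_index (Subgroup.centralizer ({w} : Set G))
    have hne : idx w ≠ 0 := Subgroup.index_ne_zero_of_finite
    have h3 : Nat.card (Subgroup.centralizer ({w} : Set G)) * idx w =
        Nat.card (Subgroup.centralizer ({v} : Set G)) * idx w := by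
      rw [h2]
      have : Nat.card (Subgroup.centralizer ({v} : Set G)) * idx v = Nat.card G := h1
      rw [← hidx, this]
    exact le_of_eq (Nat.eq_of_mul_eq_mul_right (Nat.pos_of_ne_zero hne) h3)
  have heq := Subgroup.eq_of_le_of_card_ge hle hcard
  intro g
  constructor
  · intro hg
    have : g ∈ Subgroup.centralizer ({w} : Set G) := Subgroup.mem_centralizer_singleton_iff.mpr hg
    rw [← heq] at this
    exact Subgroup.mem_centralizer_singleton_iff.mp this
  · intro hg
    exact Subgroup.mem_centralizer_singleton_iff.mp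
      (hle (Subgroup.mem_centralizer_singleton_iff.mpr hg))

/-- [I] `m` prime, all non-central `m`-elements of type (i): impossible. -/
theorem pkgI (hSyl : PkgSyl.{u}) (hStr : PkgStr.{u}) (hAb : PkgAb.{u}) (hStepA : PkgStepA.{u})
    (hStepB : PkgStepB.{u}) : PkgI.{u} := by
  intro G _ _ m n hyp hNG hm hI
  have : Fact m.Prime := ⟨hm⟩
  have h1m : 1 < m := hyp.2.1
  have hcop : m.Coprime n := hyp.2.2.2.1
  have hrange := hyp.2.2.2.2
  have hcases : ∀ x : G, idx x = 1 ∨ idx x = m ∨ idx x = m * n := by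
    intro x
    have : idx x ∈ Set.range (fun x : G => (Subgroup.centralizer ({x} : Set G)).index) := ⟨x, rfl⟩
    rw [hrange] at this
    simpa using this
  -- the element `b`
  obtain ⟨b, hbPM, -⟩ := hSyl m n hyp m hm dvd_rfl (1 : G)
  obtain ⟨hbidx, Sb, Ab, hSb, hAbm, hAbc, hcard, ⟨j, hj⟩, hAcop⟩ := hStr m n hyp hNG m b hbPM
  have habb : AbC b := hAb m n hyp hNG m b hbPM (hI b hbPM)
  -- Sylow subgroup containing `Sb`
  have hSbp : IsPGroup m Sb := IsPGroup.of_card hj
  obtain ⟨S, hSbS⟩ := hSbp.exists_le_sylow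
  have hSord : ∀ σ ∈ S, ∃ e : ℕ, orderOf σ = m ^ e := by
    intro σ hσ
    obtain ⟨e, he⟩ := (IsPGroup.iff_orderOf.mp S.isPGroup') ⟨σ, hσ⟩
    exact ⟨e, by rw [← he, Subgroup.orderOf_mk]⟩
  have hdvd : m ^ (j + 1) ∣ Nat.card G := by
    rw [← hcard, hj]
    exact ⟨Nat.card Ab * n, by ring⟩
  have hS1 : m ^ (j + 1) ∣ Nat.card S := S.pow_dvd_card_of_pow_dvd_card hdvd
  obtain ⟨g, hgS, hgSb⟩ : ∃ g ∈ S, g ∉ Sb := by
    by_contra hcon
    push Not at hcon
    have hle : (S : Subgroup G) ≤ Sb := fun y hy => hcon y hy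
    have h1 : Nat.card S ≤ Nat.card Sb := Subgroup.card_le_of_le hle
    have h2 : m ^ (j + 1) ≤ Nat.card S := Nat.le_of_dvd Nat.card_pos hS1
    have h3 : m ^ j < m ^ (j + 1) := Nat.pow_lt_pow_right h1m (by omega)
    rw [hj] at h1
    omega
  have hgord := hSord g hgS
  have hgb : ¬ Commute g b := fun hc => hgSb ((hSb g).mpr ⟨hc, hgord⟩)
  have hgnc : g ∉ Subgroup.center G := fun hc => hgb (Subgroup.mem_center_iff.mp hc b).symm
  have hgPM : PM m m g := ⟨hm, dvd_rfl, hgord, hgnc⟩
  have hgidx : idx g = m * n := (hStr m n hyp hNG m g hgPM).1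
  have habg : AbC g := hAb m n hyp hNG m g hgPM (hI g hgPM)
  -- order bound for `m`-subgroups of centralizers
  have T1 : ∀ (P : Subgroup G) (y : G), IsPGroup m P → P ≤ Subgroup.centralizer ({y} : Set G) →
      m ∣ idx y → Nat.card P ≤ m ^ j := by
    intro P y hP hPy hmy
    obtain ⟨a, ha⟩ := IsPGroup.iff_card.mp hP
    have h1 : Nat.card P ∣ Nat.card (Subgroup.centralizer ({y} : Set G)) :=
      Subgroup.card_dvd_of_le hPy
    have h2 : Nat.card (Subgroup.centralizer ({y} : Set G)) * idx y = Nat.card G :=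
      Subgroup.card_mul_index _
    have h3 : m ^ a * m ∣ Nat.card G := by
      rw [← h2, ← ha]
      exact Nat.mul_dvd_mul h1 hmy
    have h4 : m ^ (a + 1) ∣ m ^ (j + 1) * (Nat.card Ab * n) := by
      have : Nat.card G = m ^ (j + 1) * (Nat.card Ab * n) := by rw [← hcard, hj]; ring
      rw [← this, pow_succ]
      exact h3
    have h5 : Nat.Coprime (m ^ (a + 1)) (Nat.card Ab * n) :=
      Nat.Coprime.pow_left _ (Nat.Coprime.mul_right hAcop.symm hcop)
    have h6 : m ^ (a + 1) ∣ m ^ (j + 1) := h5.dvd_of_dvd_mul_right h4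
    have h7 : a + 1 ≤ j + 1 := (Nat.pow_dvd_pow_iff_le_right h1m).mp h6
    rw [ha]
    exact Nat.pow_le_pow_right (by omega) (by omega)
  have hSB : ∀ y : G, m ∣ idx y → (∀ β ∈ Sb, Commute β y) → ∀ σ ∈ S, Commute σ y → σ ∈ Sb := by
    intro y hmy hBy σ hσS hσy
    have hP : IsPGroup m ((S : Subgroup G) ⊓ Subgroup.centralizer ({y} : Set G) : Subgroup G) :=
      S.isPGroup'.to_le inf_le_left
    have hle : Sb ≤ (S : Subgroup G) ⊓ Subgroup.centralizer ({y} : Set G) :=
      le_inf hSbS (fun β hβ => Subgroup.mem_centralizer_singleton_iff.mpr (hBy β hβ))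
    have hc := T1 _ y hP inf_le_right hmy
    rw [← hj] at hc
    have heq := Subgroup.eq_of_le_of_card_ge hle hc
    rw [heq]
    exact ⟨hσS, Subgroup.mem_centralizer_singleton_iff.mpr hσy⟩
  -- `C(b) ∩ C(g) ≤ Z(G)`
  have hHH : ∀ u : G, Commute u b → Commute u g → u ∈ Subgroup.center G := by
    intro u hub hug
    rcases hcases u with h1 | hm' | hmn
    · exact (idx_eq_one_iff' u).mp h1
    · exfalso
      exact hgSb (hSB u (hm' ▸ dvd_rfl) (fun β hβ => habb β u ((hSb β).mp hβ).1 hub) g hgS hug.symm)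
    · exfalso
      have e1 := cent_eq_of_abC' habb hub (hbidx.trans hmn.symm)
      have e2 := cent_eq_of_abC' habg hug (hgidx.trans hmn.symm)
      exact hgb ((e1 g).mp ((e2 g).mpr (Commute.refl g)))
  -- the elements `x`, `x'`
  obtain ⟨x, r, k, hr, hrm, hxord, hxb, hxidx⟩ := hStepA m n hyp hNG b hbidx habb
  obtain ⟨x', r', k', hr', hr'm, hx'ord, hx'g, hx'idx⟩ := hStepA m n hyp hNG g hgidx habg
  have hconjx : ∀ c : G, Commute (c * x * c⁻¹) b :=
    fun c => hStepB m n hyp hNG b hbidx habb x c hxb hxidx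
  have hconjx' : ∀ c : G, Commute (c * x' * c⁻¹) g :=
    fun c => hStepB m n hyp hNG g hgidx habg x' c hx'g hx'idx
  have hx'nc : x' ∉ Subgroup.center G := by
    intro hc
    have := (idx_eq_one_iff' x').mpr hc
    omega
  have hrm' : Nat.Coprime r m := (Nat.Prime.coprime_iff_not_dvd hr).mpr hrm
  -- `x` and `x'` commute
  have hxx' : Commute x x' := by
    have hXp : ∀ y ∈ Subgroup.normalClosure ({x} : Set G), Commute y b ∧ y ^ (r ^ k) = 1 := by
      intro y hy
      unfold Subgroup.normalClosure at hy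
      induction hy using Subgroup.closure_induction with
      | mem y hy =>
        rw [Group.mem_conjugatesOfSet_iff] at hy
        obtain ⟨a, ha, hconj⟩ := hy
        rw [Set.mem_singleton_iff] at ha
        subst ha
        obtain ⟨c, hc⟩ := isConj_iff.mp hconj
        subst hc
        refine ⟨hconjx c, ?_⟩
        rw [conj_pow, ← hxord, pow_orderOf_eq_one]
        group
      | one => exact ⟨Commute.one_left b, one_pow _⟩
      | mul y z _ _ hy hz =>
        refine ⟨hy.1.mul_left hz.1, ?_⟩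
        rw [(habb y z hy.1 hz.1).mul_pow, hy.2, hz.2, one_mul]
      | inv y _ hy => exact ⟨hy.1.inv_left, by rw [inv_pow, hy.2, inv_one]⟩
    have hXpg : IsPGroup r (Subgroup.normalClosure ({x} : Set G)) :=
      fun y => ⟨k, Subtype.ext (by simpa using (hXp y.1 y.2).2)⟩
    have : Fact r.Prime := ⟨hr⟩
    obtain ⟨a, ha⟩ := IsPGroup.iff_card.mp hXpg
    have hDidx : (Subgroup.centralizer ({x'} : Set G)).index = m := hx'idx
    have hXD : Subgroup.normalClosure ({x} : Set G) ≤ Subgroup.centralizer ({x'} : Set G) := by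
      have hLidx : (Subgroup.normalClosure ({x} : Set G) ⊔
          Subgroup.centralizer ({x'} : Set G)).index ∣ m :=
        hDidx ▸ Subgroup.index_dvd_of_le le_sup_right
      rcases (Nat.dvd_prime hm).mp hLidx with h1 | hmm
      · exfalso
        have htop : Subgroup.normalClosure ({x} : Set G) ⊔
            Subgroup.centralizer ({x'} : Set G) = ⊤ := Subgroup.index_eq_one.mp h1
        have hc1 : Nat.card (Subgroup.normalClosure ({x} : Set G) ⊔
            Subgroup.centralizer ({x'} : Set G) : Subgroup G) =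
            Nat.card (Subgroup.normalClosure ({x} : Set G)) *
              (Subgroup.normalClosure ({x} : Set G)).relIndex
                (Subgroup.normalClosure ({x} : Set G) ⊔ Subgroup.centralizer ({x'} : Set G)) := by
          rw [← Subgroup.relIndex_bot_left, ← Subgroup.relIndex_bot_left]
          exact (Subgroup.relIndex_mul_relIndex _ _ _ bot_le le_sup_left).symm
        rw [Subgroup.relIndex_sup_left] at hc1
        have hc2 : (Subgroup.normalClosure ({x} : Set G)).relIndex
            (Subgroup.centralizer ({x'} : Set G)) ∣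
            Nat.card (Subgroup.centralizer ({x'} : Set G)) := Subgroup.relIndex_dvd_card _ _
        have hc3 : Nat.card (Subgroup.centralizer ({x'} : Set G)) * m = Nat.card G :=
          hDidx ▸ Subgroup.card_mul_index _
        have hc4 : Nat.card (Subgroup.normalClosure ({x} : Set G) ⊔
            Subgroup.centralizer ({x'} : Set G) : Subgroup G) = Nat.card G := by
          rw [htop]; exact Subgroup.card_top
        have h5 : Nat.card (Subgroup.centralizer ({x'} : Set G)) * m ∣
            Nat.card (Subgroup.centralizer ({x'} : Set G)) *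
              Nat.card (Subgroup.normalClosure ({x} : Set G)) := by
          rw [hc3, ← hc4, hc1, mul_comm]
          exact Nat.mul_dvd_mul_right hc2 _
        have hmd : m ∣ Nat.card (Subgroup.normalClosure ({x} : Set G)) :=
          Nat.dvd_of_mul_dvd_mul_left Nat.card_pos h5
        rw [ha] at hmd
        have hmr := (Nat.prime_dvd_prime_iff_eq hm hr).mp (hm.dvd_of_dvd_pow hmd)
        exact hrm (hmr ▸ dvd_rfl)
      · have heq : Subgroup.centralizer ({x'} : Set G) = Subgroup.normalClosure ({x} : Set G) ⊔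
            Subgroup.centralizer ({x'} : Set G) := by
          apply Subgroup.eq_of_le_of_card_ge le_sup_right
          have e1 := Subgroup.card_mul_index (Subgroup.centralizer ({x'} : Set G))
          have e2 := Subgroup.card_mul_index (Subgroup.normalClosure ({x} : Set G) ⊔
            Subgroup.centralizer ({x'} : Set G))
          rw [hDidx] at e1
          rw [hmm] at e2
          have e3 : Nat.card (Subgroup.normalClosure ({x} : Set G) ⊔
              Subgroup.centralizer ({x'} : Set G) : Subgroup G) * m =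
              Nat.card (Subgroup.centralizer ({x'} : Set G)) * m := by rw [e1, e2]
          exact le_of_eq (Nat.eq_of_mul_eq_mul_right hm.pos e3)
        rw [heq]
        exact le_sup_left
    have hxX : x ∈ Subgroup.normalClosure ({x} : Set G) :=
      Subgroup.subset_normalClosure (Set.mem_singleton x)
    exact Subgroup.mem_centralizer_singleton_iff.mp (hXD hxX)
  -- the key claim
  have hclaim : ∀ (x₁ x'₁ σ : G), Commute x₁ b → Commute x'₁ g → idx x₁ = m →
      (∀ c : G, Commute (c * x₁ * c⁻¹) b) → (∀ c : G, Commute (c * x'₁ * c⁻¹) g) →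
      orderOf x₁ = r ^ k → x'₁ ∉ Subgroup.center G →
      σ ∈ S → Commute σ (x₁ * x'₁) → σ ∈ Subgroup.center G := by
    intro x₁ x'₁ σ h1b h1g h1idx hc1 hc1' h1ord h1nc hσS hσw
    have hz : x₁⁻¹ * (σ * x₁ * σ⁻¹) ∈ Subgroup.center G := by
      apply hHH
      · exact (h1b.inv_left).mul_left (hc1 σ)
      · have e : x₁⁻¹ * (σ * x₁ * σ⁻¹) = x'₁ * (σ * x'₁ * σ⁻¹)⁻¹ := by
          have hw : σ * (x₁ * x'₁) * σ⁻¹ = x₁ * x'₁ := by rw [hσw.eq]; group
          have hw' : (σ * x₁ * σ⁻¹) * (σ * x'₁ * σ⁻¹) = x₁ * x'₁ := by rw [← hw]; group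
          calc x₁⁻¹ * (σ * x₁ * σ⁻¹)
              = x₁⁻¹ * ((σ * x₁ * σ⁻¹) * (σ * x'₁ * σ⁻¹)) * (σ * x'₁ * σ⁻¹)⁻¹ := by group
            _ = x₁⁻¹ * (x₁ * x'₁) * (σ * x'₁ * σ⁻¹)⁻¹ := by rw [hw']
            _ = x'₁ * (σ * x'₁ * σ⁻¹)⁻¹ := by group
        rw [e]
        exact h1g.mul_left (hc1' σ).inv_left
    obtain ⟨eσ, heσ⟩ := hSord σ hσS
    have hz1 : x₁⁻¹ * (σ * x₁ * σ⁻¹) = 1 :=
      coprime_trick' hz (by group : σ * x₁ * σ⁻¹ = x₁ * (x₁⁻¹ * (σ * x₁ * σ⁻¹))) h1ord heσ hrm'
    have hσx₁ : Commute σ x₁ := by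
      have h2 : σ * x₁ * σ⁻¹ = x₁ := by
        calc σ * x₁ * σ⁻¹ = x₁ * (x₁⁻¹ * (σ * x₁ * σ⁻¹)) := by group
          _ = x₁ := by rw [hz1, mul_one]
      show σ * x₁ = x₁ * σ
      calc σ * x₁ = (σ * x₁ * σ⁻¹) * σ := by group
        _ = x₁ * σ := by rw [h2]
    have hσB : σ ∈ Sb :=
      hSB x₁ (h1idx ▸ dvd_rfl) (fun β hβ => habb β x₁ ((hSb β).mp hβ).1 h1b) σ hσS hσx₁
    have hσb : Commute σ b := ((hSb σ).mp hσB).1
    have hσx'₁ : Commute σ x'₁ := by
      have h := hσw.eq
      rw [← mul_assoc, hσx₁.eq, mul_assoc, mul_assoc] at h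
      exact mul_left_cancel h
    by_contra hσnc
    have hσPM : PM m m σ := ⟨hm, dvd_rfl, ⟨eσ, heσ⟩, hσnc⟩
    have hσidx : idx σ = m * n := (hStr m n hyp hNG m σ hσPM).1
    have hcent := cent_eq_of_abC' habb hσb (hbidx.trans hσidx.symm)
    have h3 : Commute x'₁ b := (hcent x'₁).mp hσx'₁.symm
    exact h1nc (hHH x'₁ h3 h1g)
  -- final contradiction
  obtain ⟨bs, hbsPM, hbsw⟩ := hSyl m n hyp m hm dvd_rfl (x * x')
  obtain ⟨-, -, ⟨es, hes⟩, hbsnc⟩ := hbsPM
  have hzp : IsPGroup m (Subgroup.zpowers bs) :=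
    IsPGroup.of_card (by rw [Nat.card_zpowers, hes])
  obtain ⟨T, hT⟩ := hzp.exists_le_sylow
  obtain ⟨c, hc⟩ := MulAction.exists_smul_eq G T S
  have hσS : c * bs * c⁻¹ ∈ S := by
    have h1 : bs ∈ (T : Subgroup G) := hT (Subgroup.mem_zpowers bs)
    have h2 : (MulAut.conj c) bs ∈ MulAut.conj c • (T : Subgroup G) :=
      Subgroup.smul_mem_pointwise_smul bs (MulAut.conj c) (T : Subgroup G) h1
    rw [MulAut.conj_apply, ← Sylow.coe_subgroup_smul, hc] at h2
    exact h2
  have hfin := hclaim (c * x * c⁻¹) (c * x' * c⁻¹) (c * bs * c⁻¹) (hconjx c) (hconjx' c)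
    (by rw [idx_conj']; exact hxidx)
    (fun d => by
      have h := hconjx (d * c)
      have e : d * (c * x * c⁻¹) * d⁻¹ = d * c * x * (d * c)⁻¹ := by group
      rw [e]; exact h)
    (fun d => by
      have h := hconjx' (d * c)
      have e : d * (c * x' * c⁻¹) * d⁻¹ = d * c * x' * (d * c)⁻¹ := by group
      rw [e]; exact h)
    (by
      have := (MulAut.conj c).orderOf_eq x
      rw [MulAut.conj_apply] at this
      rw [this, hxord])
    (fun hcen => hx'nc (by
      have := (inferInstance : (Subgroup.center G).Normal).conj_mem _ hcen c⁻¹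
      have e : c⁻¹ * (c * x' * c⁻¹) * c⁻¹⁻¹ = x' := by group
      rwa [e] at this))
    hσS
    (by
      have e : c * x * c⁻¹ * (c * x' * c⁻¹) = c * (x * x') * c⁻¹ := by group
      rw [e]
      exact commute_conj' c hbsw)
  apply hbsnc
  have := (inferInstance : (Subgroup.center G).Normal).conj_mem _ hfin c⁻¹
  have e : c⁻¹ * (c * bs * c⁻¹) * c⁻¹⁻¹ = bs := by group
  rwa [e] at this

end Cfsg.Agent.Lib.Helper49.CS3
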